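import Mathlib
import Cfsg.Prelude.Def_Involutions
import Cfsg.Agent.Lib.Helper26.ElemCent3

set_option autoImplicit false

namespace Cfsg.Agent.Lib.Helper26

variable {G : Type*} [Group G] [Finite G]

variable (T : Sylow 2 G)

variable (hnc : ¬ IsCyclic (T : Subgroup G)) (hnn : ¬ (T : Subgroup G).Normal)
  (hC : ∀ t : G, orderOf t = 2 → IsMulCommutative (Subgroup.centralizer ({t} : Set G)) ∧
    ∀ c ∈ Subgroup.centralizer ({t} : Set G), c ^ 2 = 1)
  (u : G) (hu : orderOf u = 2) (huH : u ∉ ECN T)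

include hnc hnn hC in
/-- every point other than the base point is `mk v` for an involution `v` outside `H`. -/
lemma EC_exists_invol_mk {z : G ⧸ ECN T} (hz : z ≠ QuotientGroup.mk 1) :
    ∃ v : G, orderOf v = 2 ∧ v ∉ ECN T ∧ (QuotientGroup.mk v : G ⧸ ECN T) = z := by
  have hSE := EC_stronglyEmbedded T hnc hC hnn
  obtain ⟨v, hv, hvz⟩ := SE_exists_swap hSE hz.symm
  have hvz' : (QuotientGroup.mk v : G ⧸ ECN T) = z := by
    rw [← hvz, MulAction.Quotient.smul_mk, smul_eq_mul, mul_one]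
  refine ⟨v, hv, ?_, hvz'⟩
  intro h
  apply hz
  rw [← hvz', eq_comm, QuotientGroup.eq]
  simpa using h

include hnc hnn hC hu huH in
lemma ECD_fix_third {g : G} (hg : g ∈ ECD T u) {z : G ⧸ ECN T} (hgz : g • z = z)
    (hz0 : z ≠ QuotientGroup.mk 1) (hzu : z ≠ QuotientGroup.mk u) : g = 1 := by
  obtain ⟨w, hw, hwH, hwz⟩ := EC_exists_invol_mk T hnc hnn hC hz0
  have hgw : g ∈ ECD T w := (mem_ECD_iff T).mpr ⟨((mem_ECD_iff T).mp hg).1, by rw [hwz]; exact hgz⟩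
  have hex : ∃ d' ∈ ECD T w, d' ∉ ECD T u := by
    by_contra hcon
    push Not at hcon
    have heq : ECD T w = ECD T u := by
      apply Subgroup.eq_of_le_of_card_ge hcon
      rw [ECD_card T hnc hnn hC u hu huH, ECD_card T hnc hnn hC w hw hwH]
    have hfix : ∀ d ∈ ECD T u, d • z = z := by
      intro d hd
      rw [← heq] at hd
      rw [← hwz]
      exact ((mem_ECD_iff T).mp hd).2
    rcases EC_fixed_points T hnc hnn hC u hu huH hfix with h | h
    · exact hz0 h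
    · exact hzu h
  obtain ⟨d', hd'w, hd'u⟩ := hex
  obtain ⟨d, hd, t, ht, hdt⟩ := ECN_exists_mul T hnc hnn hC u hu huH (Subgroup.mem_inf.mp hd'w).1
  have ht1 : t ≠ 1 := by
    rintro rfl
    apply hd'u
    rw [hdt, mul_one]; exact hd
  have h1 : d * g = g * d := ECD_comm T hnc hnn hC u hu huH hd hg
  have h2 : d' * g = g * d' := ECD_comm T hnc hnn hC w hw hwH hd'w hgw
  have h3 : g * t = t * g := by
    have ht' : t = d⁻¹ * d' := by rw [hdt]; simp
    have h1' : d⁻¹ * g = g * d⁻¹ := by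
      have : d⁻¹ * (d * g) * d⁻¹ = d⁻¹ * (g * d) * d⁻¹ := by rw [h1]
      simpa [mul_assoc] using this.symm
    rw [ht', ← mul_assoc, ← h1', mul_assoc, ← h2, mul_assoc]
  exact ECD_inter_T T hnc hnn hC u huH hg
    (EC_mem_of_commute T hnc hC (EC_orderOf_eq_two T hnc hC ht ht1) ht h3)

include hnc hnn hC in
theorem EC_fix_three {g : G} {x₁ x₂ x₃ : G ⧸ ECN T} (h12 : x₁ ≠ x₂) (h13 : x₁ ≠ x₃) (h23 : x₂ ≠ x₃)
    (h1 : g • x₁ = x₁) (h2 : g • x₂ = x₂) (h3 : g • x₃ = x₃) : g = 1 := by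
  induction x₁ using QuotientGroup.induction_on with
  | H a =>
  have ha : a⁻¹ • (QuotientGroup.mk a : G ⧸ ECN T) = QuotientGroup.mk 1 := by
    rw [MulAction.Quotient.smul_mk, smul_eq_mul, inv_mul_cancel]
  have hx2 : a⁻¹ • x₂ ≠ QuotientGroup.mk 1 := by
    intro h
    rw [← ha] at h
    exact h12 (smul_left_cancel _ h).symm
  obtain ⟨u, hu, huH, hux⟩ := EC_exists_invol_mk T hnc hnn hC hx2
  have hconj : ∀ x : G ⧸ ECN T, g • x = x → (a⁻¹ * g * a) • (a⁻¹ • x) = a⁻¹ • x := by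
    intro x hx
    rw [← mul_smul, mul_assoc, mul_inv_cancel, mul_one, mul_smul, hx]
  have hg' : a⁻¹ * g * a ∈ ECD T u := by
    rw [mem_ECD_iff]
    refine ⟨?_, ?_⟩
    · rw [← ha]; exact hconj _ h1
    · rw [hux]; exact hconj _ h2
  have := ECD_fix_third T hnc hnn hC u hu huH hg' (hconj _ h3)
    (by
      intro h
      rw [← ha] at h
      exact h13 (smul_left_cancel _ h).symm)
    (by
      intro h
      rw [hux] at h
      exact h23 (smul_left_cancel _ h).symm)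
  have h4 : a * (a⁻¹ * g * a) * a⁻¹ = a * 1 * a⁻¹ := by rw [this]
  simpa [mul_assoc] using h4

lemma ECN_smul_mk_one {h : G} (hh : h ∈ ECN T) :
    h • (QuotientGroup.mk 1 : G ⧸ ECN T) = QuotientGroup.mk 1 := by
  rw [smul_mk_eq_mk_iff]; simpa using hh

include hnc hnn hC in
lemma EC_T_free {t t' : G} (ht : t ∈ T) (ht' : t' ∈ T) {x : G ⧸ ECN T}
    (hx : x ≠ QuotientGroup.mk 1) (h : t • x = t' • x) : t = t' := by
  have hSE := EC_stronglyEmbedded T hnc hC hnn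
  by_contra hne
  have hs : t'⁻¹ * t ∈ T := Subgroup.mul_mem _ (Subgroup.inv_mem _ ht') ht
  have hs1 : t'⁻¹ * t ≠ 1 := fun h1 => hne (inv_mul_eq_one.mp h1).symm
  have hs2 := EC_orderOf_eq_two T hnc hC hs hs1
  apply hx
  apply SE_fix_unique hSE hs2
  · rw [mul_smul, h, inv_smul_smul]
  · exact ECN_smul_mk_one T (Subgroup.le_normalizer hs)

include hnc hnn hC hu huH in
open Classical in
theorem EC_T_trans {y : G ⧸ ECN T} (hy : y ≠ QuotientGroup.mk 1) :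
    ∃ t ∈ T, t • (QuotientGroup.mk u : G ⧸ ECN T) = y := by
  by_cases hyu : y = QuotientGroup.mk u
  · exact ⟨1, Subgroup.one_mem _, by rw [one_smul, hyu]⟩
  obtain ⟨v, hv, hvH, hvy⟩ := EC_exists_invol_mk T hnc hnn hC hy
  have := Fintype.ofFinite (T : Subgroup G)
  have := Fintype.ofFinite (ECD T u)
  set O : Finset (G ⧸ ECN T) := Finset.univ.image (fun t : (T : Subgroup G) => (t : G) • y) with hO
  set A : Finset (G ⧸ ECN T) := Finset.univ.image (fun d : ECD T u => (d : G) • y) with hA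
  have hOcard : O.card = Nat.card T := by
    rw [hO, Finset.card_image_of_injective, Finset.card_univ, Nat.card_eq_fintype_card]
    intro t t' htt
    ext
    exact EC_T_free T hnc hnn hC t.2 t'.2 hy htt
  have hAcard : A.card = Nat.card T - 1 := by
    rw [hA, Finset.card_image_of_injective, Finset.card_univ, ← Nat.card_eq_fintype_card,
      ECD_card T hnc hnn hC u hu huH]
    intro d e hde
    have h1 : ((e : G)⁻¹ * d) • y = y := by
      rw [mul_smul]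
      have : (d : G) • y = (e : G) • y := hde
      rw [this, inv_smul_smul]
    have h2 := ECD_fix_third T hnc hnn hC u hu huH
      (Subgroup.mul_mem _ (Subgroup.inv_mem _ e.2) d.2) h1 hy hyu
    ext
    exact (inv_mul_eq_one.mp h2).symm
  have hOstab : ∀ h ∈ ECN T, ∀ o ∈ O, h • o ∈ O := by
    intro h hh o ho
    obtain ⟨t, -, rfl⟩ := Finset.mem_image.mp ho
    have hht : (h * t)⁻¹ ∈ ECN T :=
      Subgroup.inv_mem _ (Subgroup.mul_mem _ hh (Subgroup.le_normalizer t.2))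
    obtain ⟨d, hd, s, hs, hds⟩ := ECN_exists_mul T hnc hnn hC v hv hvH hht
    have h1 : h * t = s⁻¹ * d⁻¹ := by
      have := congrArg (fun x => x⁻¹) hds
      simpa using this
    have h2 : d⁻¹ • y = y := by
      rw [← hvy]
      exact ((mem_ECD_iff T).mp (Subgroup.inv_mem _ hd)).2
    refine Finset.mem_image.mpr ⟨⟨s⁻¹, Subgroup.inv_mem _ hs⟩, Finset.mem_univ _, ?_⟩
    show s⁻¹ • y = h • (t : G) • y
    rw [← mul_smul, h1, mul_smul, h2]
  have hyO : y ∈ O := Finset.mem_image.mpr ⟨1, Finset.mem_univ _, by simp⟩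
  have hAO : A ⊆ O := by
    intro a ha
    obtain ⟨d, -, rfl⟩ := Finset.mem_image.mp ha
    exact hOstab d (Subgroup.mem_inf.mp d.2).1 y hyO
  have h4 := EC_four_le_card T hnc
  have hcard : (O \ A).card = 1 := by
    rw [Finset.card_sdiff_of_subset hAO, hOcard, hAcard]
    omega
  obtain ⟨o', ho'⟩ := Finset.card_eq_one.mp hcard
  have ho'mem : o' ∈ O \ A := by rw [ho']; exact Finset.mem_singleton_self _
  have hfix : ∀ d ∈ ECD T u, d • o' = o' := by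
    intro d hd
    have h1 : d • o' ∈ O \ A := by
      rw [Finset.mem_sdiff] at ho'mem ⊢
      refine ⟨hOstab d (Subgroup.mem_inf.mp hd).1 o' ho'mem.1, ?_⟩
      intro hmem
      obtain ⟨e, -, he⟩ := Finset.mem_image.mp hmem
      apply ho'mem.2
      refine Finset.mem_image.mpr ⟨⟨d⁻¹ * e, Subgroup.mul_mem _ (Subgroup.inv_mem _ hd) e.2⟩,
        Finset.mem_univ _, ?_⟩
      show (d⁻¹ * (e : G)) • y = o'
      rw [mul_smul, he, inv_smul_smul]
    rw [ho'] at h1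
    exact Finset.mem_singleton.mp h1
  obtain ⟨t, -, ht⟩ := Finset.mem_image.mp (Finset.mem_sdiff.mp ho'mem).1
  rcases EC_fixed_points T hnc hnn hC u hu huH hfix with h | h
  · exfalso
    apply hy
    rw [h] at ht
    have : y = (t : G)⁻¹ • (QuotientGroup.mk 1 : G ⧸ ECN T) := by rw [← ht, inv_smul_smul]
    rw [this]
    exact ECN_smul_mk_one T (Subgroup.inv_mem _ (Subgroup.le_normalizer t.2))
  · refine ⟨(t : G)⁻¹, Subgroup.inv_mem _ t.2, ?_⟩
    rw [← h, ← ht, inv_smul_smul]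

include hnc hnn hC in
theorem EC_T_regular {x y : G ⧸ ECN T} (hx : x ≠ QuotientGroup.mk 1) (hy : y ≠ QuotientGroup.mk 1) :
    ∃! t : G, t ∈ T ∧ t • x = y := by
  obtain ⟨u, huH, hu⟩ := SE_exists_invol_not_mem (EC_stronglyEmbedded T hnc hC hnn)
  obtain ⟨t₁, ht₁, h1⟩ := EC_T_trans T hnc hnn hC u hu huH hx
  obtain ⟨t₂, ht₂, h2⟩ := EC_T_trans T hnc hnn hC u hu huH hy
  refine ⟨t₂ * t₁⁻¹, ⟨Subgroup.mul_mem _ ht₂ (Subgroup.inv_mem _ ht₁), ?_⟩, ?_⟩
  · rw [← h1, mul_smul, inv_smul_smul, h2]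
  · rintro t ⟨ht, htx⟩
    apply EC_T_free T hnc hnn hC ht (Subgroup.mul_mem _ ht₂ (Subgroup.inv_mem _ ht₁)) hx
    rw [htx, ← h1, mul_smul, inv_smul_smul, h2]

include hnc hnn hC hu huH in
lemma EC_triple {t₀ : G} (ht₀ : t₀ ∈ T) (ht₀1 : t₀ ≠ 1) {x₁ x₂ x₃ : G ⧸ ECN T}
    (h12 : x₁ ≠ x₂) (h13 : x₁ ≠ x₃) (h23 : x₂ ≠ x₃) :
    ∃ g : G, g • x₁ = QuotientGroup.mk 1 ∧ g • x₂ = QuotientGroup.mk u ∧
      g • x₃ = t₀ • (QuotientGroup.mk u : G ⧸ ECN T) := by
  induction x₁ using QuotientGroup.induction_on with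
  | H a =>
  have ha : a⁻¹ • (QuotientGroup.mk a : G ⧸ ECN T) = QuotientGroup.mk 1 := by
    rw [MulAction.Quotient.smul_mk, smul_eq_mul, inv_mul_cancel]
  have hx2 : a⁻¹ • x₂ ≠ QuotientGroup.mk 1 := by
    intro h
    rw [← ha] at h
    exact h12 (smul_left_cancel _ h).symm
  obtain ⟨t, ht, htx⟩ := EC_T_trans T hnc hnn hC u hu huH hx2
  have g1 : (t⁻¹ * a⁻¹) • (QuotientGroup.mk a : G ⧸ ECN T) = QuotientGroup.mk 1 := by
    rw [mul_smul, ha]
    exact ECN_smul_mk_one T (Subgroup.inv_mem _ (Subgroup.le_normalizer ht))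
  have g2 : (t⁻¹ * a⁻¹) • x₂ = QuotientGroup.mk u := by
    rw [mul_smul, ← htx, inv_smul_smul]
  have hx3 : (t⁻¹ * a⁻¹) • x₃ ≠ QuotientGroup.mk 1 := by
    intro h
    rw [← g1] at h
    exact h13 (smul_left_cancel _ h).symm
  have hx3' : (t⁻¹ * a⁻¹) • x₃ ≠ QuotientGroup.mk u := by
    intro h
    rw [← g2] at h
    exact h23 (smul_left_cancel _ h).symm
  obtain ⟨s, hs, hsx⟩ := EC_T_trans T hnc hnn hC u hu huH hx3
  have hs1 : s ≠ 1 := by
    rintro rfl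
    rw [one_smul] at hsx
    exact hx3' hsx.symm
  obtain ⟨d, hd, hds⟩ := ECD_trans T hnc hnn hC u hu huH hs hs1 ht₀ ht₀1
  have hd' := (mem_ECD_iff T).mp hd
  refine ⟨d * (t⁻¹ * a⁻¹), ?_, ?_, ?_⟩
  · rw [mul_smul, g1, hd'.1]
  · rw [mul_smul, g2, hd'.2]
  · rw [mul_smul, ← hsx, ← hds]
    nth_rewrite 2 [← hd'.2]
    rw [← mul_smul, ← mul_smul]
    congr 1
    simp [mul_assoc]

include hnc hnn hC in
theorem EC_three_trans {x₁ x₂ x₃ y₁ y₂ y₃ : G ⧸ ECN T}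
    (h12 : x₁ ≠ x₂) (h13 : x₁ ≠ x₃) (h23 : x₂ ≠ x₃) (k12 : y₁ ≠ y₂) (k13 : y₁ ≠ y₃) (k23 : y₂ ≠ y₃) :
    ∃ g : G, g • x₁ = y₁ ∧ g • x₂ = y₂ ∧ g • x₃ = y₃ := by
  obtain ⟨u, huH, hu⟩ := SE_exists_invol_not_mem (EC_stronglyEmbedded T hnc hC hnn)
  obtain ⟨t₀, ht₀, ht₀1⟩ := EC_exists_ne_one T hnc
  obtain ⟨g, g1, g2, g3⟩ := EC_triple T hnc hnn hC u hu huH ht₀ ht₀1 h12 h13 h23
  obtain ⟨k, k1, k2, k3⟩ := EC_triple T hnc hnn hC u hu huH ht₀ ht₀1 k12 k13 k23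
  refine ⟨k⁻¹ * g, ?_, ?_, ?_⟩
  · rw [mul_smul, g1, ← k1, inv_smul_smul]
  · rw [mul_smul, g2, ← k2, inv_smul_smul]
  · rw [mul_smul, g3, ← k3, inv_smul_smul]

end Cfsg.Agent.Lib.Helper26
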