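import Mathlib
import Cfsg.Agent.Lib.Helper84.PS.Defs
import Cfsg.Agent.Lib.Helper12.Card

set_option autoImplicit false

namespace Cfsg.Agent.Lib.Helper26.PS

open Cfsg.Agent.Lib.Helper84.PS
open scoped Pointwise

variable {G : Type*} [Group G]

theorem s1a_mul [Finite G] (H K : Subgroup G) (h : (H.index).Coprime K.index)
    (g : G) : ∃ a ∈ H, ∃ b ∈ K, g = a * b := by
  have h1 := Cfsg.Agent.Lib.Helper12.mul_eq_univ_of_coprime_index H K h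
  have h2 : g ∈ (H : Set G) * (K : Set G) := by rw [h1]; trivial
  obtain ⟨a, ha, b, hb, rfl⟩ := Set.mem_mul.mp h2
  exact ⟨a, ha, b, hb, rfl⟩

/-- if `G = C(w) C(v)` every conjugate of `v` is a conjugate by an element of `C(w)` -/
theorem s1a_conj [Finite G] (w v : G) (hc : (idx w).Coprime (idx v)) (a : G) :
    ∃ x : G, x * w = w * x ∧ a * v * a⁻¹ = x * v * x⁻¹ := by
  obtain ⟨x, hx, η, hη, rfl⟩ := s1a_mul _ _ hc a
  rw [Subgroup.mem_centralizer_singleton_iff] at hx hη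
  refine ⟨x, hx, ?_⟩
  calc x * η * v * (x * η)⁻¹ = x * (η * v) * η⁻¹ * x⁻¹ := by group
    _ = x * (v * η) * η⁻¹ * x⁻¹ := by rw [hη]
    _ = x * v * x⁻¹ := by group

theorem s1a [Finite G] (u v : G) (huv : Commute u v) (hc1 : (idx u).Coprime (idx v))
    (hc2 : (idx (u * v)).Coprime (idx v)) (c g h : G) :
    ∃ d : G, (c * u * c⁻¹) * ((g * v * g⁻¹) * (h * v * h⁻¹)⁻¹) = d * u * d⁻¹ := by
  obtain ⟨x, hx, hxv⟩ := s1a_conj u v hc1 (c⁻¹ * g)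
  obtain ⟨y, hy, hyv⟩ := s1a_conj (u * v) v hc2 ((c * x)⁻¹ * h)
  refine ⟨c * x * y, ?_⟩
  have e1 : g * v * g⁻¹ = c * (c⁻¹ * g * v * (c⁻¹ * g)⁻¹) * c⁻¹ := by group
  have e2 : h * v * h⁻¹ = (c * x) * ((c * x)⁻¹ * h * v * ((c * x)⁻¹ * h)⁻¹) * (c * x)⁻¹ := by group
  rw [e1, e2, hxv, hyv]
  have e3 : u = x * u * x⁻¹ := by rw [hx]; group
  have e4 : u * v = y * (u * v) * y⁻¹ := by rw [hy]; group
  calc c * u * c⁻¹ * (c * (x * v * x⁻¹) * c⁻¹ * (c * x * (y * v * y⁻¹) * (c * x)⁻¹)⁻¹)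
      = c * (u * x * v) * y * v⁻¹ * y⁻¹ * x⁻¹ * c⁻¹ := by group
    _ = c * (x * u * v) * y * v⁻¹ * y⁻¹ * x⁻¹ * c⁻¹ := by rw [hx]
    _ = c * x * ((u * v) * y) * v⁻¹ * y⁻¹ * x⁻¹ * c⁻¹ := by group
    _ = c * x * (y * (u * v)) * v⁻¹ * y⁻¹ * x⁻¹ * c⁻¹ := by rw [hy]
    _ = c * x * y * u * (c * x * y)⁻¹ := by group

end Cfsg.Agent.Lib.Helper26.PS
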