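import Mathlib
import Cfsg.Agent.Lib.Helper84.PS.Defs

set_option autoImplicit false

namespace Cfsg.Agent.Lib.Helper26.PS

open Cfsg.Agent.Lib.Helper84.PS

variable {G : Type*} [Group G]

theorem s1b_idx (u : G) : idx u = (MulAction.orbit (ConjAct G) u).ncard := by
  have h1 : (MulAction.stabilizer (ConjAct G) u).index = (MulAction.orbit (ConjAct G) u).ncard :=
    MulAction.index_stabilizer (ConjAct G) u
  have h2 : (Subgroup.centralizer ({u} : Set G)).index =
      (MulAction.stabilizer (ConjAct G) u).index := by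
    rw [Subgroup.centralizer_eq_comap_stabilizer]
    exact Subgroup.index_comap_of_surjective _ (MulEquiv.surjective _)
  exact h2.trans h1

theorem s1b_mem_orbit (u x : G) : x ∈ MulAction.orbit (ConjAct G) u ↔ ∃ d : G, x = d * u * d⁻¹ := by
  constructor
  · rintro ⟨d, rfl⟩
    exact ⟨ConjAct.ofConjAct d, ConjAct.smul_def _ _⟩
  · rintro ⟨d, rfl⟩
    exact ⟨ConjAct.toConjAct d, ConjAct.smul_def _ _⟩

theorem s1b [Finite G] (u : G) (K : Subgroup G)
    (h : ∀ c : G, ∀ k ∈ K, ∃ d : G, c * u * c⁻¹ * k = d * u * d⁻¹) :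
    Nat.card K ∣ idx u := by
  set A : Set G := MulAction.orbit (ConjAct G) u with hA
  have hpre : A = (QuotientGroup.mk : G → G ⧸ K) ⁻¹' ((QuotientGroup.mk : G → G ⧸ K) '' A) := by
    apply Set.Subset.antisymm
    · exact Set.subset_preimage_image _ _
    · rintro x ⟨a, ha, hax⟩
      rw [QuotientGroup.eq] at hax
      obtain ⟨c, rfl⟩ := (s1b_mem_orbit u a).mp ha
      obtain ⟨d, hd⟩ := h c _ hax
      rw [hA, s1b_mem_orbit]
      refine ⟨d, ?_⟩
      rw [← hd]; group
  rw [s1b_idx, ← hA, ← Nat.card_coe_set_eq, hpre, QuotientGroup.card_preimage_mk]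
  exact Dvd.intro _ rfl

end Cfsg.Agent.Lib.Helper26.PS
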