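import Mathlib
import Cfsg.Agent.Lib.Helper84.PS.Defs
import Cfsg.Agent.Lib.Helper12.Card

set_option autoImplicit false

namespace Cfsg.Agent.Lib.Helper26.PS

open Cfsg.Agent.Lib.Helper84.PS
open scoped Pointwise

variable {G : Type*} [Group G]

theorem s1c_normal (v : G) : (KK v).Normal := by
  refine ⟨fun n hn g => ?_⟩
  unfold KK at hn ⊢
  induction hn using Subgroup.closure_induction with
  | mem x hx =>
    obtain ⟨a, b, rfl⟩ := hx
    apply Subgroup.subset_closure
    exact ⟨g * a, g * b, by group⟩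
  | one => simp
  | mul x y _ _ hx hy =>
    have : g * (x * y) * g⁻¹ = (g * x * g⁻¹) * (g * y * g⁻¹) := by group
    rw [this]; exact mul_mem hx hy
  | inv x _ hx =>
    have : g * x⁻¹ * g⁻¹ = (g * x * g⁻¹)⁻¹ := by group
    rw [this]; exact inv_mem hx

theorem s1c_relIndex_dvd [Finite G] (K C : Subgroup G) [K.Normal] : C.relIndex K ∣ C.index := by
  have h1 : Nat.card (K ⊔ C : Subgroup G) = C.relIndex K * Nat.card C := by
    rw [← Cfsg.Agent.Lib.Helper12.card_mul_set K C, ← Subgroup.normal_mul]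
    rfl
  have h2 := Cfsg.Agent.Lib.Helper12.relIndex_mul_card' (le_sup_right : C ≤ K ⊔ C)
  have h3 : C.relIndex K = C.relIndex (K ⊔ C) := by
    have hpos : 0 < Nat.card C := Nat.card_pos
    apply Nat.eq_of_mul_eq_mul_right hpos
    rw [h2, h1]
  rw [h3, ← Subgroup.relIndex_mul_index (le_sup_right : C ≤ K ⊔ C)]
  exact Dvd.intro _ rfl

theorem s1c [Finite G] (p : ℕ) [Fact p.Prime] (v : G) (hvp : IsPE p v)
    (hK1 : (Nat.card (KK v)).Coprime (idx v)) (hK2 : ¬ p ∣ Nat.card (KK v)) :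
    v ∈ Subgroup.center G := by
  have hp : p.Prime := Fact.out
  have hKn : (KK v).Normal := s1c_normal v
  have hle : KK v ≤ Subgroup.centralizer ({v} : Set G) := by
    rw [← Subgroup.relIndex_eq_one]
    have h1 : (Subgroup.centralizer ({v} : Set G)).relIndex (KK v) ∣ Nat.card (KK v) :=
      Subgroup.relIndex_dvd_card _ _
    have h2 : (Subgroup.centralizer ({v} : Set G)).relIndex (KK v) ∣ idx v :=
      s1c_relIndex_dvd _ _
    exact Nat.eq_one_of_dvd_coprimes hK1 h1 h2
  have hcomm : ∀ k ∈ KK v, ∀ g : G, k * (g * v * g⁻¹) = (g * v * g⁻¹) * k := by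
    intro k hk g
    have h1 := hle (hKn.conj_mem k hk g⁻¹)
    rw [Subgroup.mem_centralizer_singleton_iff, inv_inv] at h1
    calc k * (g * v * g⁻¹) = g * ((g⁻¹ * k * g) * v) * g⁻¹ := by group
      _ = g * (v * (g⁻¹ * k * g)) * g⁻¹ := by rw [h1]
      _ = (g * v * g⁻¹) * k := by group
  obtain ⟨e, he⟩ := hvp
  rw [Subgroup.mem_center_iff]
  intro g
  set k : G := (g * v * g⁻¹) * (1 * v * 1⁻¹)⁻¹ with hk
  have hkK : k ∈ KK v := Subgroup.subset_closure ⟨g, 1, rfl⟩
  have hkv : Commute k v := by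
    have h0 := hcomm k hkK 1
    have h0' : k * v = v * k := by simpa using h0
    exact h0'
  have h1 : g * v * g⁻¹ = k * v := by rw [hk]; group
  have h2 : k ^ (p ^ e) = 1 := by
    have h3 : (g * v * g⁻¹) ^ (p ^ e) = 1 := by rw [conj_pow, he]; group
    rw [h1, hkv.mul_pow, he, mul_one] at h3
    exact h3
  have h4 : k ^ Nat.card (KK v) = 1 := by
    have : (⟨k, hkK⟩ : KK v) ^ Nat.card (KK v) = 1 := pow_card_eq_one'
    exact congrArg Subtype.val this
  have h5 : k = 1 := by
    have hc : (p ^ e).Coprime (Nat.card (KK v)) :=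
      Nat.Coprime.pow_left e ((Nat.Prime.coprime_iff_not_dvd hp).mpr hK2)
    have h6 := orderOf_dvd_of_pow_eq_one h2
    have h7 := orderOf_dvd_of_pow_eq_one h4
    exact orderOf_eq_one_iff.mp (Nat.eq_one_of_dvd_coprimes hc h6 h7)
  rw [h5, one_mul] at h1
  calc g * v = (g * v * g⁻¹) * g := by group
    _ = v * g := by rw [h1]

end Cfsg.Agent.Lib.Helper26.PS
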